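import Cfsg.Agent.H316.U6Fam
import Cfsg.Agent.H818.StrP.UThm
import Cfsg.Agent.S1054
import Cfsg.Agent.S1055
import Cfsg.Agent.S1070
import Cfsg.Agent.S1071

/-!
# The rows of the exceptional groups in cross characteristic, over `q ≥ 3` (helper316, hub H9)

`TC m p` : the conclusions of H9-U4 and H9-U5. From `TC` for the instances of `MData` we get `Row p K` for all exceptional
families (`G₂(q)`, `q ≥ 4`; `F₄`, `E₆`, `E₇`, `E₈`, `²E₆`, `³D₄`, `q ≥ 3`).
-/

set_option autoImplicit false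
set_option linter.unusedSectionVars false

namespace Cfsg.Agent.H316.U6

open CoxeterSystem Cfsg Cfsg.Lie Cfsg.Lie.ChevalleyDatum
open Cfsg.Agent.Nodes.RGDChev Cfsg.Agent.H818.StrP Cfsg.Agent.H818.StrP.UTab Cfsg.Agent.H818.StrP.UThm

universe u v

section

variable {D : ChevalleyDatum} {l : ℕ} {M : CoxeterMatrix (Fin l)} {hp : IsType D l M} {r q : ℕ}
  [hr : Fact r.Prime] {K₀ : Type v} [Group K₀]

/-- H9-U4 and H9-U5 -/
def TC (m : MData hp r q K₀) (p : ℕ) : Prop :=
  ∀ E : Subgroup K₀, IsElementaryAbelian p E → Nat.card ↥E = p ^ 2 → Toral m p ∧ CentRoot m p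

theorem row_tc (m : MData hp r q K₀) [IsSimpleGroup K₀] {p : ℕ} [Fact p.Prime] (hp2 : p ≠ 2) (hq : 3 ≤ q)
    (hG2 : D = chevG2 → 4 ≤ q) (hD : HiList D) (h : TC m p) : Row p K₀ :=
  row' m hp2 hq hG2 (fun E h1 h2 => (h E h1 h2).1) (fun E h1 h2 => (h E h1 h2).2) (thmZ m hD hq)

end

/-- the value of `dd` -/
def DDUntw (D : ChevalleyDatum) (dd q : ℕ) : Prop :=
  (dd = 1 ∧ (D = chevG2 ∨ D = chevF4 ∨ D = chevE8)) ∨ (dd = Nat.gcd 3 (q - 1) ∧ D = chevE6) ∨
    (dd = Nat.gcd 2 (q - 1) ∧ D = chevE7)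

theorem ne_of_nroots {D D' : ChevalleyDatum} (h : D.nroots ≠ D'.nroots) : D ≠ D' := fun e => h (e ▸ rfl)

theorem isTypeG2 : IsType chevG2 2 CoxeterMatrix.G₂ := by simp [IsType, typeList]

theorem isTypeF4 : IsType chevF4 4 CoxeterMatrix.F₄ := by simp [IsType, typeList]

theorem isTypeE6 : IsType chevE6 6 CoxeterMatrix.E₆ := by simp [IsType, typeList]

theorem isTypeE7 : IsType chevE7 7 CoxeterMatrix.E₇ := by simp [IsType, typeList]

theorem isTypeE8 : IsType chevE8 8 CoxeterMatrix.E₈ := by simp [IsType, typeList]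

theorem row_untw {D : ChevalleyDatum} {l : ℕ} {M : CoxeterMatrix (Fin l)} (hp : IsType D l M) (hB2 : D ≠ chevB2)
    (hD4 : D ≠ chevD4) {F : Type} [Field F] [Fintype F] {r p : ℕ} [Fact r.Prime] [Fact p.Prime] [CharP F r]
    [IsSimpleGroup ↥(D.group F)] (hp2 : p ≠ 2) (hq : 3 ≤ Fintype.card F) (hG2 : D = chevG2 → 4 ≤ Fintype.card F)
    (h : ∀ m : MData hp r (Fintype.card F) ↥(D.group F), m.g = AddEquiv.refl _ →
      DDUntw D m.dd (Fintype.card F) → TC m p) : Row p ↥(D.group F) := by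
  obtain ⟨m, hg, hdd⟩ := mdata_untw (r := r) hp hB2 hD4 F
  refine row_tc m hp2 hq hG2 ?_ (h m hg hdd)
  rcases hdd with ⟨-, rfl | rfl | rfl⟩ | ⟨-, rfl⟩ | ⟨-, rfl⟩ <;> simp [HiList]

theorem exists_ne {F : Type} [Field F] [Fintype F] (h : 3 ≤ Fintype.card F) : ∃ a : F, a ≠ 0 ∧ a ≠ 1 := by
  classical
  by_contra hc
  push Not at hc
  have h1 : (Finset.univ : Finset F) ⊆ {0, 1} := by
    intro a _
    by_cases h0 : a = 0
    · simp [h0]
    · simp [hc a h0]
  have h2 := Finset.card_le_card h1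
  have h3 : ({0, 1} : Finset F).card ≤ 2 := Finset.card_le_two
  rw [Finset.card_univ] at h2
  omega

section

variable {F : Type} [Field F] [Fintype F] {r p : ℕ} [Fact r.Prime] [Fact p.Prime] [CharP F r]

theorem row_G2 (hp2 : p ≠ 2) (hq : 4 ≤ Fintype.card F)
    (h : ∀ m : MData isTypeG2 r (Fintype.card F) ↥(chevG2.group F), m.g = AddEquiv.refl _ → m.dd = 1 → TC m p) :
    Row p ↥(chevG2.group F) := by
  have := (S1055.result (F := F) (exists_ne (by omega))).1
  refine row_untw (r := r) isTypeG2 (ne_of_nroots (by decide)) (ne_of_nroots (by decide)) hp2 (by omega) (fun _ => hq)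
    fun m hg hdd => h m hg ?_
  rcases hdd with ⟨h1, -⟩ | ⟨-, h1⟩ | ⟨-, h1⟩
  · exact h1
  · exact absurd h1 (ne_of_nroots (by decide))
  · exact absurd h1 (ne_of_nroots (by decide))

theorem row_F4 (hp2 : p ≠ 2) (hq : 3 ≤ Fintype.card F)
    (h : ∀ m : MData isTypeF4 r (Fintype.card F) ↥(chevF4.group F), m.g = AddEquiv.refl _ → m.dd = 1 → TC m p) :
    Row p ↥(chevF4.group F) := by
  have := (S1054.result (F := F) chevF4 (by simp)).1
  refine row_untw (r := r) isTypeF4 (ne_of_nroots (by decide)) (ne_of_nroots (by decide)) hp2 hq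
    (fun h => absurd h (ne_of_nroots (by decide))) fun m hg hdd => h m hg ?_
  rcases hdd with ⟨h1, -⟩ | ⟨-, h1⟩ | ⟨-, h1⟩
  · exact h1
  · exact absurd h1 (ne_of_nroots (by decide))
  · exact absurd h1 (ne_of_nroots (by decide))

theorem row_E6 (hp2 : p ≠ 2) (hq : 3 ≤ Fintype.card F)
    (h : ∀ m : MData isTypeE6 r (Fintype.card F) ↥(chevE6.group F), m.g = AddEquiv.refl _ →
      m.dd = Nat.gcd 3 (Fintype.card F - 1) → TC m p) :
    Row p ↥(chevE6.group F) := by
  have := (S1054.result (F := F) chevE6 (by simp)).1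
  refine row_untw (r := r) isTypeE6 (ne_of_nroots (by decide)) (ne_of_nroots (by decide)) hp2 hq
    (fun h => absurd h (ne_of_nroots (by decide))) fun m hg hdd => h m hg ?_
  rcases hdd with ⟨-, h1 | h1 | h1⟩ | ⟨h1, -⟩ | ⟨-, h1⟩
  · exact absurd h1 (ne_of_nroots (by decide))
  · exact absurd h1 (ne_of_nroots (by decide))
  · exact absurd h1 (ne_of_nroots (by decide))
  · exact h1
  · exact absurd h1 (ne_of_nroots (by decide))

theorem row_E7 (hp2 : p ≠ 2) (hq : 3 ≤ Fintype.card F)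
    (h : ∀ m : MData isTypeE7 r (Fintype.card F) ↥(chevE7.group F), m.g = AddEquiv.refl _ →
      m.dd = Nat.gcd 2 (Fintype.card F - 1) → TC m p) :
    Row p ↥(chevE7.group F) := by
  have := (S1054.result (F := F) chevE7 (by simp)).1
  refine row_untw (r := r) isTypeE7 (ne_of_nroots (by decide)) (ne_of_nroots (by decide)) hp2 hq
    (fun h => absurd h (ne_of_nroots (by decide))) fun m hg hdd => h m hg ?_
  rcases hdd with ⟨-, h1 | h1 | h1⟩ | ⟨-, h1⟩ | ⟨h1, -⟩
  · exact absurd h1 (ne_of_nroots (by decide))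
  · exact absurd h1 (ne_of_nroots (by decide))
  · exact absurd h1 (ne_of_nroots (by decide))
  · exact absurd h1 (ne_of_nroots (by decide))
  · exact h1

theorem row_E8 (hp2 : p ≠ 2) (hq : 3 ≤ Fintype.card F)
    (h : ∀ m : MData isTypeE8 r (Fintype.card F) ↥(chevE8.group F), m.g = AddEquiv.refl _ → m.dd = 1 → TC m p) :
    Row p ↥(chevE8.group F) := by
  have := (S1054.result (F := F) chevE8 (by simp)).1
  refine row_untw (r := r) isTypeE8 (ne_of_nroots (by decide)) (ne_of_nroots (by decide)) hp2 hq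
    (fun h => absurd h (ne_of_nroots (by decide))) fun m hg hdd => h m hg ?_
  rcases hdd with ⟨h1, -⟩ | ⟨-, h1⟩ | ⟨-, h1⟩
  · exact h1
  · exact absurd h1 (ne_of_nroots (by decide))
  · exact absurd h1 (ne_of_nroots (by decide))

theorem row_twE6 {q : ℕ} (hp2 : p ≠ 2) (hqp : IsPrimePow q) (hq : 3 ≤ q) (hF : Fintype.card F = q ^ 2)
    (h : ∀ m : MData Nodes.RGDTwE6.hp r q ↥(twistedE6 F q), m.g = H720.TwFr.permE H720.TwFr.rho6 →
      m.dd = Nat.gcd 3 (q + 1) → TC m p) : Row p ↥(twistedE6 F q) := by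
  have := (S1070.result hqp hF).1
  obtain ⟨m, hdd, hg⟩ := mdata_twE6' (r := r) hqp hF
  exact row_tc m hp2 hq (fun h => absurd h (ne_of_nroots (by decide))) (by simp [HiList]) (h m hg hdd)

theorem row_twD4 {q : ℕ} (hp2 : p ≠ 2) (hqp : IsPrimePow q) (hq : 3 ≤ q) (hF : Fintype.card F = q ^ 3)
    (h : ∀ m : MData Nodes.RGDTwD4.hp r q ↥(twistedD4 F q), m.g = H720.TwFr.permE H720.TwFr.rho4 →
      m.dd = 1 → TC m p) : Row p ↥(twistedD4 F q) := by
  have := (S1071.result hqp hF).1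
  obtain ⟨m, hdd, hg⟩ := mdata_twD4' (r := r) hqp hF
  exact row_tc m hp2 hq (fun h => absurd h (ne_of_nroots (by decide))) (by simp [HiList]) (h m hg hdd)

end

end Cfsg.Agent.H316.U6
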